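import Cfsg.Agent.Blocks.Defect.Pairs

/-!
# The averaging idempotent of a subgroup of order prime to `p`
-/

set_option autoImplicit false
open scoped MonoidAlgebra

namespace CfsgLib.FongBlock

open CfsgLib.Blocks

variable {k : Type*} [Field k] {G : Type*} [Group G] [Finite G]

open scoped Classical in
/-- The average of the elements of a subgroup. -/
noncomputable def avgEl (k : Type*) [Field k] (X : Subgroup G) : k[G] :=
  MonoidAlgebra.ofCoeff
    (Finsupp.equivFunOnFinite.symm fun g => if g ∈ X then (Nat.card X : k)⁻¹ else 0)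

theorem coeff_avgEl_of_mem {X : Subgroup G} {g : G} (hg : g ∈ X) :
    (avgEl k X).coeff g = (Nat.card X : k)⁻¹ := by
  simp [avgEl, hg]

theorem coeff_avgEl_of_not_mem {X : Subgroup G} {g : G} (hg : g ∉ X) :
    (avgEl k X).coeff g = 0 := by
  simp [avgEl, hg]

theorem isSupportedOn_avgEl (X : Subgroup G) : IsSupportedOn (avgEl k X) X :=
  fun _ hg => coeff_avgEl_of_not_mem hg

theorem avgEl_mul_of_le {X Y : Subgroup G} (hXY : X ≤ Y) (hX : (Nat.card X : k) ≠ 0) :
    avgEl k X * avgEl k Y = avgEl k Y := by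
  classical
  haveI := Fintype.ofFinite G
  refine MonoidAlgebra.ext (Finsupp.ext fun g => ?_)
  rw [MonoidAlgebra.coeff_mul_apply_left, Finsupp.sum_fintype _ _ (fun _ => zero_mul _)]
  have hterm : ∀ x : G, (avgEl k X).coeff x * (avgEl k Y).coeff (x⁻¹ * g) =
      (if x ∈ X then (Nat.card X : k)⁻¹ else 0) * (avgEl k Y).coeff g := by
    intro x
    by_cases hx : x ∈ X
    · rw [coeff_avgEl_of_mem hx, if_pos hx]
      congr 1
      by_cases hg : g ∈ Y
      · rw [coeff_avgEl_of_mem hg, coeff_avgEl_of_mem (Y.mul_mem (Y.inv_mem (hXY hx)) hg)]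
      · rw [coeff_avgEl_of_not_mem hg, coeff_avgEl_of_not_mem
          (fun h => hg (by simpa using Y.mul_mem (hXY hx) h))]
    · rw [coeff_avgEl_of_not_mem hx, if_neg hx, zero_mul, zero_mul]
  rw [Finset.sum_congr rfl fun x _ => hterm x, ← Finset.sum_mul, ← Finset.sum_filter,
    Finset.sum_const, nsmul_eq_mul, show (Finset.univ.filter fun x => x ∈ X).card = Nat.card X by
      rw [Nat.card_eq_fintype_card, Fintype.card_subtype],
    mul_inv_cancel₀ hX, one_mul]

theorem conjA_avgEl (x : G) (X : Subgroup G) :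
    conjA x (avgEl k X) = avgEl k (X.map (MulAut.conj x).toMonoidHom) := by
  refine MonoidAlgebra.ext (Finsupp.ext fun g => ?_)
  rw [coeff_conjA]
  have hiff : g ∈ X.map (MulAut.conj x).toMonoidHom ↔ x⁻¹ * g * x ∈ X := by
    constructor
    · rintro ⟨y, hy, rfl⟩
      simpa [mul_assoc] using hy
    · exact fun h => ⟨_, h, by simp [mul_assoc]⟩
  by_cases hg : x⁻¹ * g * x ∈ X
  · rw [coeff_avgEl_of_mem hg, coeff_avgEl_of_mem (hiff.mpr hg), card_map_conj]
  · rw [coeff_avgEl_of_not_mem hg, coeff_avgEl_of_not_mem (mt hiff.mp hg)]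

theorem isFixedBy_avgEl {X R : Subgroup G} (hR : R ≤ Subgroup.normalizer (X : Set G)) :
    IsFixedBy (avgEl k X) R :=
  isFixedBy_iff_conjA.mpr fun u hu => by
    rw [conjA_avgEl, map_conj_eq_self_of_mem_normalizer (hR hu)]

theorem avgEl_mem_centerIn {X H : Subgroup G} (hXH : X ≤ H)
    (hH : H ≤ Subgroup.normalizer (X : Set G)) : avgEl k X ∈ centerIn k H :=
  ⟨isSupportedOn_mono (isSupportedOn_avgEl X) hXH, isFixedBy_avgEl hH⟩

theorem avgEl_idem {X : Subgroup G} (hX : (Nat.card X : k) ≠ 0) :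
    avgEl k X * avgEl k X = avgEl k X :=
  avgEl_mul_of_le le_rfl hX

/-- A larger average is killed with a smaller one. -/
theorem avgEl_mul_eq_zero_of_le {X Y : Subgroup G} (hXY : X ≤ Y) (hX : (Nat.card X : k) ≠ 0)
    {r : k[G]} (h : avgEl k X * r = 0) : avgEl k Y * r = 0 := by
  have hc : Commute (avgEl k X) (avgEl k Y) :=
    commute_of_isFixedBy (isSupportedOn_mono (isSupportedOn_avgEl X) hXY)
      (isFixedBy_avgEl Subgroup.le_normalizer)
  rw [← avgEl_mul_of_le hXY hX, hc.eq, mul_assoc, h, mul_zero]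

/-- A smaller average fixes what a larger one fixes. -/
theorem avgEl_mul_eq_self_of_le {X Y : Subgroup G} (hXY : X ≤ Y) (hX : (Nat.card X : k) ≠ 0)
    {r : k[G]} (h : avgEl k Y * r = r) : avgEl k X * r = r := by
  rw [← h, ← mul_assoc, avgEl_mul_of_le hXY hX]

variable {p : ℕ} [Fact p.Prime] [CharP k p]

omit [Finite G] [Fact p.Prime] in
theorem natCast_card_ne_zero {X : Subgroup G} (hX : ¬ p ∣ Nat.card X) : (Nat.card X : k) ≠ 0 :=
  (CharP.cast_eq_zero_iff k p _).not.mpr hX

/-- The Brauer map of a `p`-group sends an average to the average of the fixed points. -/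
theorem brTrunc_avgEl {X R : Subgroup G} (hR : IsPGroup p R)
    (hRX : R ≤ Subgroup.normalizer (X : Set G)) (hX : ¬ p ∣ Nat.card X) :
    brTrunc R (avgEl k X) = avgEl k (X ⊓ Subgroup.centralizer (R : Set G)) := by
  classical
  haveI := Fintype.ofFinite G
  set Z := X ⊓ Subgroup.centralizer (R : Set G) with hZ
  set c := (Nat.card X : k)⁻¹ with hc
  have hco : ∀ g, (brTrunc R (avgEl k X)).coeff g = if g ∈ Z then c else 0 := by
    intro g
    by_cases hg : g ∈ Subgroup.centralizer (R : Set G)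
    · rw [coeff_brTrunc_of_mem _ hg]
      by_cases hgX : g ∈ X
      · rw [coeff_avgEl_of_mem hgX, if_pos ⟨hgX, hg⟩]
      · rw [coeff_avgEl_of_not_mem hgX, if_neg (fun h => hgX h.1)]
    · rw [coeff_brTrunc_of_not_mem _ hg, if_neg (fun h => hg h.2)]
  have hidem : brTrunc R (avgEl k X) * brTrunc R (avgEl k X) = brTrunc R (avgEl k X) := by
    rw [← brTrunc_mul hR (isFixedBy_avgEl hRX) (isFixedBy_avgEl hRX),
      avgEl_idem (natCast_card_ne_zero hX)]
  have h1 : (Nat.card Z : k) * c = 1 := by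
    have h := congrArg (fun a : k[G] => a.coeff 1) hidem
    simp only [MonoidAlgebra.coeff_mul_apply_left] at h
    rw [Finsupp.sum_fintype _ _ (fun _ => zero_mul _)] at h
    simp only [hco, mul_one, inv_mem_iff, Subgroup.one_mem, if_true] at h
    rw [Finset.sum_congr rfl (g := fun x => if x ∈ Z then c * c else 0) fun x _ => by
      split_ifs <;> simp, ← Finset.sum_filter, Finset.sum_const, nsmul_eq_mul,
      show (Finset.univ.filter fun x => x ∈ Z).card = Nat.card Z by
        rw [Nat.card_eq_fintype_card, Fintype.card_subtype], ← mul_assoc] at h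
    have hc0 : c ≠ 0 := inv_ne_zero (natCast_card_ne_zero hX)
    exact mul_eq_right₀ hc0 |>.mp h
  refine MonoidAlgebra.ext (Finsupp.ext fun g => ?_)
  rw [hco]
  by_cases hg : g ∈ Z
  · rw [if_pos hg, coeff_avgEl_of_mem hg, eq_inv_of_mul_eq_one_right h1]
  · rw [if_neg hg, coeff_avgEl_of_not_mem hg]

/-- An average along a normal inclusion of pairs. -/
theorem avgEl_step {H Q R X : Subgroup G} {f r : k[G]} (h : IsNormalPairIdem p H Q f R r)
    (hRX : R ≤ Subgroup.normalizer (X : Set G)) (hX : ¬ p ∣ Nat.card X) :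
    avgEl k (X ⊓ Subgroup.centralizer (R : Set G)) * r = brTrunc R (avgEl k X * f) * r := by
  rw [brTrunc_mul h.2.1.1 (isFixedBy_avgEl hRX) h.2.2.2.2.1, brTrunc_avgEl h.2.1.1 hRX hX,
    mul_assoc, h.2.2.2.2.2]

end CfsgLib.FongBlock
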