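import Cfsg.Agent.FongBlock.Average
import Cfsg.Agent.FongBlock.Basic
import Cfsg.Agent.Blocks.Defect.Induced
import Cfsg.Agent.Constrained.PiCore
import Cfsg.Agent.Chars.Induced.Clifford
import Cfsg.Agent.Blocks.Orth.SecondMain

/-!
# `π'`-cores of centralizers in the kernels of the blocks of Brauer pairs
-/

set_option autoImplicit false
set_option linter.unusedSectionVars false
set_option linter.style.haveILetI false
open scoped MonoidAlgebra
open Cfsg

namespace CfsgLib.FongBlock

open CfsgLib.Blocks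
open CfsgLib.Constrained (IsPiCard)

section cores

variable {G : Type*} [Group G] [Finite G] {ρ : Set ℕ}

theorem piCoreOf_le_self (X : Subgroup G) : piCoreOf ρ X ≤ X :=
  Subgroup.map_subtype_le _

theorem isPiCard_piCoreOf (X : Subgroup G) : IsPiCard ρ (Nat.card (piCoreOf ρ X)) :=
  Constrained.isPiCard_mono Constrained.piCore_isPiCard (Constrained.card_map_dvd_card _ _)

theorem le_normalizer_piCoreOf_self (X : Subgroup G) :
    X ≤ Subgroup.normalizer (piCoreOf ρ X : Set G) := by
  intro x hx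
  apply mem_normalizer_of_map_conj_le
  rintro _ ⟨_, ⟨y, hy, rfl⟩, rfl⟩
  exact ⟨⟨x, hx⟩ * y * ⟨x, hx⟩⁻¹, (piCore_normal ρ X).conj_mem y hy _, by simp⟩

theorem le_piCoreOf {K X : Subgroup G} (hKX : K ≤ X) (hXK : X ≤ Subgroup.normalizer (K : Set G))
    (hK : IsPiCard ρ (Nat.card K)) : K ≤ piCoreOf ρ X := by
  rw [piCoreOf, ← Subgroup.map_subgroupOf_eq_of_le hKX]
  refine Subgroup.map_mono (Constrained.le_piCore
    ((Subgroup.normal_subgroupOf_iff_le_normalizer hKX).mpr hXK) ?_)
  rwa [Nat.card_congr (Subgroup.subgroupOfEquivOfLe hKX).toEquiv]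

theorem le_normalizer_map_conj {K X : Subgroup G} (h : X ≤ Subgroup.normalizer (K : Set G))
    (x : G) : X.map (MulAut.conj x).toMonoidHom ≤
      Subgroup.normalizer ((K.map (MulAut.conj x).toMonoidHom : Subgroup G) : Set G) :=
  (Subgroup.map_mono h).trans (Subgroup.le_normalizer_map _)

theorem map_conj_piCoreOf (X : Subgroup G) (x : G) :
    (piCoreOf ρ X).map (MulAut.conj x).toMonoidHom =
      piCoreOf ρ (X.map (MulAut.conj x).toMonoidHom) := by
  have key : ∀ (X : Subgroup G) (x : G), (piCoreOf ρ X).map (MulAut.conj x).toMonoidHom ≤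
      piCoreOf ρ (X.map (MulAut.conj x).toMonoidHom) := fun X x =>
    le_piCoreOf (Subgroup.map_mono (piCoreOf_le_self X))
      (le_normalizer_map_conj (le_normalizer_piCoreOf_self X) x)
      (by rw [card_map_conj]; exact isPiCard_piCoreOf X)
  refine le_antisymm (key X x) ?_
  have h := Subgroup.map_mono (f := (MulAut.conj x).toMonoidHom)
    (key (X.map (MulAut.conj x).toMonoidHom) x⁻¹)
  rwa [map_conj_map_conj, mul_inv_cancel, map_conj_one, map_conj_map_conj, inv_mul_cancel,
    map_conj_one] at h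

theorem centralizer_map_conj (Q : Subgroup G) (x : G) :
    Subgroup.centralizer ((Q.map (MulAut.conj x).toMonoidHom : Subgroup G) : Set G) =
      (Subgroup.centralizer (Q : Set G)).map (MulAut.conj x).toMonoidHom := by
  have h := inf_centralizer_map_conj (H := (⊤ : Subgroup G)) (Q := Q) (Subgroup.mem_top x)
  rwa [top_inf_eq, top_inf_eq] at h

end cores

section pairs

variable {k : Type*} [Field k] {G : Type*} [Group G] [Finite G] {p : ℕ} {π : Set ℕ}

/-- `O_{π'}` of the centralizer, inside the group. -/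
noncomputable abbrev centCore (π : Set ℕ) (Q : Subgroup G) : Subgroup G :=
  piCoreOf {q | q ∉ π} (Subgroup.centralizer (Q : Set G))

/-- The centralizer has a normal Hall `π'`-subgroup. -/
def HasHallCore (π : Set ℕ) (Q : Subgroup G) : Prop :=
  ∀ x ∈ Subgroup.centralizer (Q : Set G),
    (∀ q : ℕ, q.Prime → q ∣ orderOf x → q ∉ π) → x ∈ centCore π Q

theorem not_dvd_card_piCoreOf (hp : p.Prime) (hpπ : p ∈ π) (X : Subgroup G) :
    ¬ p ∣ Nat.card (piCoreOf {q | q ∉ π} X) :=
  fun h => isPiCard_piCoreOf X p hp h hpπ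

theorem orderOf_not_mem_of_mem {X : Subgroup G} {x : G} (hx : x ∈ piCoreOf {q | q ∉ π} X) :
    ∀ q : ℕ, q.Prime → q ∣ orderOf x → q ∉ π := fun q hq hd =>
  isPiCard_piCoreOf X q hq (hd.trans (Subgroup.orderOf_dvd_natCard _ hx))

theorem normalizer_le_normalizer_centCore (Q : Subgroup G) :
    Subgroup.normalizer (Q : Set G) ≤ Subgroup.normalizer (centCore π Q : Set G) := by
  intro x hx
  apply mem_normalizer_of_map_conj_le
  rw [centCore, map_conj_piCoreOf, ← centralizer_map_conj,
    map_conj_eq_self_of_mem_normalizer hx]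

theorem inf_le_piCoreOf {X C : Subgroup G} (hC : C ≤ Subgroup.normalizer (X : Set G))
    (hX : IsPiCard {q | q ∉ π} (Nat.card X)) : X ⊓ C ≤ piCoreOf {q | q ∉ π} C := by
  refine le_piCoreOf inf_le_right (fun x hx => ?_)
    (Constrained.isPiCard_mono hX (Subgroup.card_dvd_of_le inf_le_left))
  apply mem_normalizer_of_map_conj_le
  rintro _ ⟨y, ⟨hy, hyC⟩, rfl⟩
  exact ⟨(Subgroup.mem_normalizer_iff.mp (hC hx) y).mp hy,
    C.mul_mem (C.mul_mem hx hyC) (C.inv_mem hx)⟩

theorem centCore_inf_le {Q R : Subgroup G} (hQR : Q ≤ R) :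
    centCore π Q ⊓ Subgroup.centralizer (R : Set G) ≤ centCore π R :=
  inf_le_piCoreOf ((Subgroup.centralizer_le hQR).trans (le_normalizer_piCoreOf_self _))
    (isPiCard_piCoreOf _)

theorem HasHallCore.centCore_eq {Q R : Subgroup G} (h : HasHallCore π Q) (hQR : Q ≤ R) :
    centCore π R = centCore π Q ⊓ Subgroup.centralizer (R : Set G) :=
  le_antisymm (fun x hx => ⟨h x (Subgroup.centralizer_le hQR (piCoreOf_le_self _ hx))
    (orderOf_not_mem_of_mem hx), piCoreOf_le_self _ hx⟩) (centCore_inf_le hQR)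

theorem HasHallCore.mono {Q R : Subgroup G} (h : HasHallCore π Q) (hQR : Q ≤ R) :
    HasHallCore π R := fun x hx ho =>
  centCore_inf_le hQR ⟨h x (Subgroup.centralizer_le hQR hx) ho, hx⟩

theorem HasHallCore.map_conj {Q : Subgroup G} (h : HasHallCore π Q) (x : G) :
    HasHallCore π (Q.map (MulAut.conj x).toMonoidHom) := by
  intro y hy ho
  rw [centCore, centralizer_map_conj, ← map_conj_piCoreOf]
  rw [centralizer_map_conj] at hy
  obtain ⟨z, hz, rfl⟩ := hy
  refine ⟨z, h z hz fun q hq hd => ho q hq ?_, rfl⟩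
  rwa [orderOf_injective _ (MulAut.conj x).injective]

theorem conjA_centCore_mul (Q : Subgroup G) (x : G) (f : k[G]) :
    avgEl k (centCore π (Q.map (MulAut.conj x).toMonoidHom)) * conjA x f =
      conjA x (avgEl k (centCore π Q) * f) := by
  rw [map_mul, conjA_avgEl, centCore, centCore, centralizer_map_conj, map_conj_piCoreOf]

variable [Fact p.Prime] [CharP k p]

theorem centCore_mul_eq_zero_or {Q : Subgroup G} {f : k[G]} (hpπ : p ∈ π)
    (hf : IsPairIdem p ⊤ Q f) :
    avgEl k (centCore π Q) * f = 0 ∨ avgEl k (centCore π Q) * f = f :=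
  hf.2.2.2.2.2 _
    (avgEl_mem_centerIn (le_inf le_top (piCoreOf_le_self _))
      (inf_le_right.trans (le_normalizer_piCoreOf_self _)))
    (avgEl_idem (natCast_card_ne_zero (p := p) (not_dvd_card_piCoreOf Fact.out hpπ _)))

/-- Killing propagates upwards along inclusions of pairs. -/
theorem centCore_mul_eq_zero_of_le (hpπ : p ∈ π) {Q P : Subgroup G} {f g : k[G]}
    (h : PairLE p ⊤ Q f P g) (h0 : avgEl k (centCore π Q) * f = 0) :
    avgEl k (centCore π P) * g = 0 := by
  suffices key : ∀ a b : Subgroup G × k[G],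
      Relation.ReflTransGen (fun a b => IsNormalPairIdem p ⊤ a.1 a.2 b.1 b.2) a b →
        avgEl k (centCore π a.1) * a.2 = 0 → avgEl k (centCore π b.1) * b.2 = 0 from
    key (Q, f) (P, g) h h0
  intro a b hab ha
  induction hab with
  | refl => exact ha
  | @tail b c _ hbc ih =>
    have hpX : ¬ p ∣ Nat.card (centCore π b.1) := not_dvd_card_piCoreOf Fact.out hpπ _
    have hRX : c.1 ≤ Subgroup.normalizer (centCore π b.1 : Set G) :=
      hbc.2.2.2.1.trans (normalizer_le_normalizer_centCore _)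
    refine avgEl_mul_eq_zero_of_le (centCore_inf_le hbc.2.2.1) ?_ ?_
    · exact natCast_card_ne_zero (p := p) fun hd =>
        hpX (hd.trans (Subgroup.card_dvd_of_le inf_le_left))
    · rw [avgEl_step hbc hRX hpX, ih, map_zero, zero_mul]

/-- Over a centralizer with a normal Hall `π'`-subgroup, fixing propagates upwards. -/
theorem centCore_mul_eq_self_of_le (hpπ : p ∈ π) {Q P : Subgroup G} {f g : k[G]}
    (h : PairLE p ⊤ Q f P g) (hQ : HasHallCore π Q) (h1 : avgEl k (centCore π Q) * f = f) :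
    avgEl k (centCore π P) * g = g := by
  suffices key : ∀ a b : Subgroup G × k[G],
      Relation.ReflTransGen (fun a b => IsNormalPairIdem p ⊤ a.1 a.2 b.1 b.2) a b →
        HasHallCore π a.1 → avgEl k (centCore π a.1) * a.2 = a.2 →
          HasHallCore π b.1 ∧ avgEl k (centCore π b.1) * b.2 = b.2 from
    (key (Q, f) (P, g) h hQ h1).2
  intro a b hab ha hax
  induction hab with
  | refl => exact ⟨ha, hax⟩
  | @tail b c _ hbc ih =>
    obtain ⟨hb, hbx⟩ := ih
    refine ⟨hb.mono hbc.2.2.1, ?_⟩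
    rw [hb.centCore_eq hbc.2.2.1, avgEl_step hbc (hbc.2.2.2.1.trans
      (normalizer_le_normalizer_centCore _)) (not_dvd_card_piCoreOf Fact.out hpπ _), hbx,
      hbc.2.2.2.2.2]

/-- If the core is fixed at a maximal pair, it is fixed at every pair of the block. -/
theorem centCore_mul_eq_self (hpπ : p ∈ π) {e g f : k[G]} {D Q : Subgroup G}
    (he : IsBlockIdem ⊤ e) (hmax : IsMaxPairIdem p ⊤ e D g)
    (hg : avgEl k (centCore π D) * g = g) (hf : IsPairOfIdem p ⊤ e Q f) :
    avgEl k (centCore π Q) * f = f := by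
  refine (centCore_mul_eq_zero_or hpπ hf.1).resolve_left fun h0 => ?_
  obtain ⟨x, -, hle⟩ := hf.exists_conj_le he hmax
  apply hmax.1.1.2.2.ne_zero
  rw [← hg]
  exact centCore_mul_eq_zero_of_le hpπ hle (by rw [conjA_centCore_mul, h0, map_zero])

/-- If the core is fixed at a pair with a normal Hall subgroup, it is fixed at maximal pairs. -/
theorem centCore_mul_eq_self_max (hpπ : p ∈ π) {e g f : k[G]} {D Q : Subgroup G}
    (he : IsBlockIdem ⊤ e) (hmax : IsMaxPairIdem p ⊤ e D g) (hf : IsPairOfIdem p ⊤ e Q f)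
    (hQ : HasHallCore π Q) (h1 : avgEl k (centCore π Q) * f = f) :
    avgEl k (centCore π D) * g = g := by
  obtain ⟨x, -, hle⟩ := hf.exists_conj_le he hmax
  exact centCore_mul_eq_self_of_le hpπ hle (hQ.map_conj x) (by rw [conjA_centCore_mul, h1])

/-- The `π'`-core of the normalizer of a `p`-subgroup is that of its centralizer. -/
theorem piCoreOf_normalizer_eq (hpπ : p ∈ π) {D : Subgroup G} (hD : IsPGroup p D) :
    piCoreOf {q | q ∉ π} (Subgroup.normalizer (D : Set G)) = centCore π D := by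
  set K := piCoreOf {q | q ∉ π} (Subgroup.normalizer (D : Set G))
  have hKN : K ≤ Subgroup.normalizer (D : Set G) := piCoreOf_le_self _
  have hNK := le_normalizer_piCoreOf_self (ρ := {q | q ∉ π}) (Subgroup.normalizer (D : Set G))
  have hKC : K ≤ Subgroup.centralizer (D : Set G) := by
    intro x hx
    rw [Subgroup.mem_centralizer_iff]
    intro d hd
    have hz1 : x * d * x⁻¹ * d⁻¹ ∈ D :=
      D.mul_mem ((Subgroup.mem_normalizer_iff.mp (hKN hx) d).mp hd) (D.inv_mem hd)
    have hz2 : x * d * x⁻¹ * d⁻¹ ∈ K := by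
      rw [mul_assoc, mul_assoc, ← mul_assoc d]
      exact K.mul_mem hx ((Subgroup.mem_normalizer_iff.mp (hNK (Subgroup.le_normalizer hd)) _).mp
        (K.inv_mem hx))
    obtain ⟨n, hn⟩ := IsPGroup.iff_card.mp hD
    obtain ⟨i, -, hi⟩ := (Nat.dvd_prime_pow (Fact.out : p.Prime)).mp
      (hn ▸ Subgroup.orderOf_dvd_natCard D hz1)
    have hone : x * d * x⁻¹ * d⁻¹ = 1 := by
      rw [← orderOf_eq_one_iff, hi]
      rcases Nat.eq_zero_or_pos i with rfl | hpos
      · exact pow_zero p
      · exact absurd hpπ (orderOf_not_mem_of_mem hz2 p Fact.out (hi ▸ dvd_pow_self p hpos.ne'))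
    calc d * x = (x * d * x⁻¹ * d⁻¹)⁻¹ * (x * d) := by group
      _ = x * d := by rw [hone, inv_one, one_mul]
  refine le_antisymm (le_piCoreOf hKC ((Subgroup.centralizer_le_normalizer _).trans hNK)
    (isPiCard_piCoreOf _)) ?_
  exact le_piCoreOf ((piCoreOf_le_self _).trans (Subgroup.centralizer_le_normalizer _))
    (normalizer_le_normalizer_centCore _) (isPiCard_piCoreOf _)

end pairs

section blocks

variable {p : ℕ} {M : Ideal AlgInt} [hMmax : M.IsMaximal] {G : Type*} [Group G] [Fintype G]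

theorem redC_inv_natCast (hM : IsPModular p M) {n : ℕ} (hn : ¬ p ∣ n) :
    redC M (n : ℂ)⁻¹ = (n : kres M)⁻¹ := by
  have h := memLocalRing_inv_natCast hM hn
  rw [redC_of_mem h]
  refine eq_inv_of_mul_eq_one_right ?_
  rw [← map_natCast (res M), ← map_mul, ← map_one (res M)]
  congr 1
  apply Subtype.ext
  have hn0 : (n : ℂ) ≠ 0 := Nat.cast_ne_zero.mpr fun h0 => hn (h0 ▸ dvd_zero p)
  simp [hn0]

open scoped Classical in
/-- A subgroup of order prime to `p` normalized by `H` lies in the kernel of a block of `H` exactly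
when its average fixes the idempotent of the block. -/
theorem avgEl_mul_subEl_eq_iff [Fact p.Prime] (hM : IsPModular p M) {H X : Subgroup G}
    [Fintype H] (hXH : X ≤ H) (hHX : H ≤ Subgroup.normalizer (X : Set G))
    (hX : ¬ p ∣ Nat.card X) {b : Set (IrrCharacter H)} (hb : IsPBlock M b) :
    avgEl (kres M) X * subEl M H b = subEl M H b ↔ ∀ h : H, (h : G) ∈ X → h ∈ blockKer b := by
  haveI : (X.subgroupOf H).Normal := (Subgroup.normal_subgroupOf_iff_le_normalizer hXH).mpr hHX
  haveI := Fintype.ofFinite (X.subgroupOf H)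
  haveI := charP_kres hM
  have hcard : Nat.card (X.subgroupOf H) = Nat.card X :=
    Nat.card_congr (Subgroup.subgroupOfEquivOfLe hXH).toEquiv
  have hX' : ¬ p ∣ Nat.card (X.subgroupOf H) := by rwa [hcard]
  set θ : IrrCharacter (X.subgroupOf H) := Chars.oneChar _ with hθ
  have hinv : IsInvariant θ := fun g n => by rw [hθ, Chars.oneChar_apply, Chars.oneChar_apply]
  have hemb : emb (kres M) H.subtype (topEl M b) = subEl M H b := by
    rw [subEl, topEl, blockEl, blockEl, ← emb_comp]
    rfl
  have havg : emb (kres M) H.subtype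
      (subEl M (X.subgroupOf H) ({θ} : Set (IrrCharacter (X.subgroupOf H)))) =
        avgEl (kres M) X := by
    refine MonoidAlgebra.ext (Finsupp.ext fun g => ?_)
    by_cases hg : g ∈ H
    · have h1 := coeff_emb_apply (k := kres M) H.subtype_injective
        (subEl M (X.subgroupOf H) ({θ} : Set (IrrCharacter (X.subgroupOf H)))) ⟨g, hg⟩
      rw [Subgroup.coe_subtype] at h1
      rw [h1, coeff_subEl]
      by_cases hgX : g ∈ X
      · have hgX' : (⟨g, hg⟩ : H) ∈ X.subgroupOf H := hgX
        rw [coeff_avgEl_of_mem hgX, ← redC_inv_natCast hM hX]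
        congr 1
        simp only [subgroupBlockCoeff, dif_pos hgX', blockCoeff, finsum_mem_singleton, hθ,
          Chars.oneChar_apply, hcard, map_one, mul_one]
      · have hgX' : (⟨g, hg⟩ : H) ∉ X.subgroupOf H := hgX
        rw [coeff_avgEl_of_not_mem hgX]
        simp only [subgroupBlockCoeff, dif_neg hgX', redC_zero]
    · rw [coeff_emb_of_not_mem _ (by rwa [Subgroup.range_subtype]),
        coeff_avgEl_of_not_mem (fun h => hg (hXH h))]
  rw [← havg, ← hemb, ← map_mul, (emb_injective H.subtype_injective).eq_iff]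
  constructor
  · intro h t ht ψ hψ
    have hinner := (over_iff hM hX' hinv hb hψ).mpr h
    rw [Chars.Induced.classInner_eq_mult (Chars.isCharacter_restrict (Chars.isCharacter_coe ψ) _),
      Ne, Nat.cast_eq_zero] at hinner
    have hcl := Chars.Induced.clifford ψ θ hinner
    have hval : ∀ n : X.subgroupOf H, (ψ : H → ℂ) n =
        (Chars.Induced.mult (fun n : X.subgroupOf H => (ψ : H → ℂ) n) θ : ℂ) *
          ((Set.finite_range fun x : H => Chars.Induced.conjIrr x θ).toFinset.card : ℂ) := by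
      intro n
      have h2 := congrFun hcl n
      simp only [Pi.smul_apply, Finset.sum_apply, smul_eq_mul] at h2
      rw [h2]
      congr 1
      rw [Finset.sum_congr rfl (g := fun _ => (1 : ℂ)) fun η hη => ?_, Finset.sum_const, nsmul_one]
      obtain ⟨x, rfl⟩ := (Set.Finite.mem_toFinset _).1 hη
      simp [hθ, Chars.Induced.conjFun, Chars.oneChar_apply]
    exact (hval ⟨t, ht⟩).trans (hval 1).symm
  · intro h
    obtain ⟨ψ, hψ⟩ := nonempty_of_isPBlock hb
    refine (over_iff hM hX' hinv hb hψ).mp ?_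
    have hr : ∀ n : X.subgroupOf H, (ψ : H → ℂ) n = (ψ : H → ℂ) 1 := fun n => h n n.2 ψ hψ
    rw [classInner]
    simp only [hr, hθ, Chars.oneChar_apply, map_one, mul_one, Finset.sum_const, Finset.card_univ,
      nsmul_eq_mul]
    rw [← Nat.card_eq_fintype_card, ← mul_assoc, inv_mul_cancel₀ (by exact_mod_cast Nat.card_pos.ne'),
      one_mul]
    exact Chars.map_one_ne_zero ψ

/-- Induction, seen on the whole centre. -/
theorem exists_brOver_of_induced [Fact p.Prime] (hM : IsPModular p M) {H D : Subgroup G}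
    [Fintype H] {b : Set (IrrCharacter H)} {B : Set (IrrCharacter G)}
    (hind : IsInducedBlock M H b B) (hDH : D ≤ H) (hD : IsPGroup p D)
    (hC : Subgroup.centralizer (D : Set G) ≤ H) (hne : brTrunc D (subEl M H b) ≠ 0) :
    ∃ f, IsPairOfIdem p ⊤ (topEl M B) D f ∧ brTrunc D (subEl M H b) * f = f := by
  classical
  haveI := charP_kres hM
  set e := topEl M B with hedef
  set β := subEl M H b with hβdef
  have he : IsBlockIdem ⊤ e := isBlockIdem_topEl hind.2.1
  have hβ : IsBlockIdem H β := isBlockIdem_subEl hind.1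
  obtain ⟨ξ, hξ⟩ := nonempty_of_isPBlock hind.1
  obtain ⟨χ, hχ⟩ := nonempty_of_isPBlock hind.2.1
  have hz : setIdem B ∈ centerO M G := setIdem_mem_centerO hind.2.1
  set x : centerK M H := centerRed M H ⟨restrictGA H (setIdem B), restrictGA_mem H hz⟩ with hx
  set a := emb (kres M) H.subtype (x : MonoidAlgebra (kres M) H) with hadef
  have ha : a ∈ centerIn (kres M) H := by
    have := (emb_mem_centerIn_iff (k := kres M) H.subtype_injective
      (x : MonoidAlgebra (kres M) H)).mpr x.2
    rwa [Subgroup.range_subtype] at this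
  have hae : brTrunc D a = brTrunc D e := by
    refine MonoidAlgebra.ext (Finsupp.ext fun g => ?_)
    by_cases hg : g ∈ Subgroup.centralizer (D : Set G)
    · rw [coeff_brTrunc_of_mem _ hg, coeff_brTrunc_of_mem _ hg, hedef, coeff_topEl]
      have h1 := coeff_emb_apply (k := kres M) H.subtype_injective
        (x : MonoidAlgebra (kres M) H) ⟨g, hC hg⟩
      rw [Subgroup.coe_subtype] at h1
      rw [hadef, h1, hx, coe_centerRed, coeff_reduceHom, ← redC_of_mem]
      congr 1
    · rw [coeff_brTrunc_of_not_mem _ hg, coeff_brTrunc_of_not_mem _ hg]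
  have hsees : Sees β a := by
    rw [hadef, hβdef, subEl, sees_blockEl_iff H.subtype_injective hind.1 hξ]
    have h1 : Congr M (omega (ξ : H → ℂ) (restrictGA H (setIdem B))) (1 : ℂ) := by
      have := congr_omega_restrictGA H hind hξ hχ hz
      rwa [omega_setIdem, if_pos hχ] at this
    have hmem := memLocalRing_omega (restrictGA_mem H hz) ξ
    have h2 : omegaBar M ξ x = 1 := by
      rw [hx, omegaBar_centerRed, ← map_one (res M), res_eq_res_iff]
      exact h1
    rw [h2]
    exact one_ne_zero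
  obtain ⟨w, hw, hwe⟩ := hβ.exists_inverse ha hsees
  have hmulβ : brTrunc D e * brTrunc D (w * β) = brTrunc D β := by
    rw [← hae, ← brTrunc_mul hD (ha.2.mono hDH) ((hw.2.mul hβ.1.2).mono hDH), ← mul_assoc, hwe]
  have hee : brTrunc D e * brTrunc D e = brTrunc D e := by
    rw [← brTrunc_mul hD (he.1.2.mono le_top) (he.1.2.mono le_top), he.idem]
  have heβ : brTrunc D e * brTrunc D β = brTrunc D β := by
    rw [← hmulβ, ← mul_assoc, hee]
  obtain ⟨f, hf, hfb⟩ := exists_isBlockIdem_mul_eq (H := ⊤ ⊓ Subgroup.centralizer (D : Set G))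
    (i := brTrunc D β)
    ⟨isSupportedOn_mono (isSupportedOn_brTrunc D β) (le_inf le_top le_rfl),
      (hβ.1.2.mono (inf_le_right.trans hC)).brTrunc
        (inf_le_right.trans (Subgroup.centralizer_le_normalizer _))⟩
    (by rw [← brTrunc_mul hD (hβ.1.2.mono hDH) (hβ.1.2.mono hDH), hβ.idem]) hne
  refine ⟨f, ⟨⟨hD, le_top, hf⟩, ?_⟩, hfb⟩
  show brTrunc D e * f = f
  rw [← hfb, ← mul_assoc, heβ]

/-- The Brauer correspondent gives a maximal pair below it. -/
theorem exists_maxPair_le_correspondent [Fact p.Prime] (hM : IsPModular p M)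
    {B : Set (IrrCharacter G)} (hB : IsPBlock M B) {D : Subgroup G} (hBD : IsDefectGroup p M B D)
    {B₁ : Set (IrrCharacter (Subgroup.normalizer (D : Set G)))}
    (hB₁ : IsInducedBlock M (Subgroup.normalizer (D : Set G)) B₁ B) :
    ∃ g, IsMaxPairIdem p ⊤ (topEl M B) D g ∧
      subEl M (Subgroup.normalizer (D : Set G)) B₁ * g = g := by
  classical
  haveI := charP_kres hM
  set e := topEl M B
  set b₁ := subEl M (Subgroup.normalizer (D : Set G)) B₁
  have hdef := (isDefectGroup_topEl_iff hB D).mp hBD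
  have hb₁ : IsBlockIdem (Subgroup.normalizer (D : Set G)) b₁ := isBlockIdem_subEl hB₁.1
  have hover : BrOver D b₁ e := (isInducedBlock_iff_brOver hM hdef.2.1 Subgroup.le_normalizer
    (Subgroup.centralizer_le_normalizer _) le_rfl hB₁.1 hB).mp hB₁
  have hsupp := hb₁.isSupportedOn_centralizer hdef.2.1 Subgroup.le_normalizer le_rfl
  obtain ⟨g, hg, hgb⟩ := exists_isBlockIdem_mul_eq (H := ⊤ ⊓ Subgroup.centralizer (D : Set G))
    (i := b₁) ⟨isSupportedOn_mono hsupp (le_inf le_top le_rfl),
      hb₁.1.2.mono (inf_le_right.trans (Subgroup.centralizer_le_normalizer _))⟩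
    hb₁.idem hb₁.ne_zero
  have hpair : IsPairOfIdem p ⊤ e D g := by
    refine ⟨⟨hdef.2.1, le_top, hg⟩, ?_⟩
    show brTrunc D e * g = g
    rw [← hgb, ← mul_assoc, hover]
  refine ⟨g, ⟨hpair, fun R r hR hle => ?_⟩, hgb⟩
  have hne : brTrunc R e ≠ 0 := fun h0 => hR.1.2.2.ne_zero (by
    rw [← hR.2, h0, zero_mul])
  obtain ⟨x, -, hx⟩ := hdef.2.2.2 R le_top hR.1.1 hne
  have hcard := Subgroup.card_le_of_le hx
  rw [card_map_conj] at hcard
  exact (Subgroup.eq_of_le_of_card_ge hle.le hcard).symm

/-- The core of `H` in the kernel of a block of `H`. -/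
theorem piCore_le_blockKer_iff [Fact p.Prime] (hM : IsPModular p M) {π : Set ℕ} (hpπ : p ∈ π)
    {H : Subgroup G} [Fintype H] {b : Set (IrrCharacter H)} (hb : IsPBlock M b) :
    (∀ n : H, n ∈ piCore {q | q ∉ π} H → n ∈ blockKer b) ↔
      avgEl (kres M) (piCoreOf {q | q ∉ π} H) * subEl M H b = subEl M H b := by
  rw [avgEl_mul_subEl_eq_iff hM (piCoreOf_le_self H) (le_normalizer_piCoreOf_self H)
    (not_dvd_card_piCoreOf Fact.out hpπ H) hb]
  constructor
  · rintro h n ⟨m, hm, hmn⟩
    exact Subtype.ext hmn ▸ h m hm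
  · exact fun h n hn => h n ⟨n, hn, rfl⟩

/-- A maximal pair below the Brauer correspondent fixes the core exactly when the correspondent
has the core of the normalizer in its kernel. -/
theorem exists_maxPair_centCore_iff [Fact p.Prime] (hM : IsPModular p M) {π : Set ℕ} (hpπ : p ∈ π)
    {B : Set (IrrCharacter G)} (hB : IsPBlock M B) {D : Subgroup G} (hBD : IsDefectGroup p M B D)
    [Fintype (Subgroup.normalizer (D : Set G))]
    {B₁ : Set (IrrCharacter (Subgroup.normalizer (D : Set G)))}
    (hB₁ : IsInducedBlock M (Subgroup.normalizer (D : Set G)) B₁ B) :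
    ∃ g, IsMaxPairIdem p ⊤ (topEl M B) D g ∧
      ((∀ n : Subgroup.normalizer (D : Set G),
          n ∈ piCore {q | q ∉ π} (Subgroup.normalizer (D : Set G)) → n ∈ blockKer B₁) ↔
        avgEl (kres M) (centCore π D) * g = g) := by
  haveI := charP_kres hM
  obtain ⟨g, hg, hgb⟩ := exists_maxPair_le_correspondent hM hB hBD hB₁
  refine ⟨g, hg, ?_⟩
  set b₁ := subEl M (Subgroup.normalizer (D : Set G)) B₁
  have hb₁ : IsBlockIdem (Subgroup.normalizer (D : Set G)) b₁ := isBlockIdem_subEl hB₁.1
  rw [piCore_le_blockKer_iff hM hpπ hB₁.1, piCoreOf_normalizer_eq hpπ hg.1.1.1]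
  constructor
  · intro h
    rw [← hgb, ← mul_assoc, h]
  · intro h
    refine (hb₁.2.2.2 _ ?_ (avgEl_idem (natCast_card_ne_zero (p := p)
      (not_dvd_card_piCoreOf Fact.out hpπ _)))).resolve_left fun h0 => hg.1.1.2.2.ne_zero ?_
    · exact avgEl_mem_centerIn ((piCoreOf_le_self _).trans (Subgroup.centralizer_le_normalizer _))
        (normalizer_le_normalizer_centCore _)
    · rw [← h, ← hgb, ← mul_assoc, h0, zero_mul]

end blocks

end CfsgLib.FongBlock
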